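import Cfsg.Agent.Lib.Helper13.Asch.Defs2

set_option autoImplicit false

/-! # Piece K2a of the Aschbacher campaign: the family of commuting perfect subgroups -/

namespace Cfsg.Agent.Lib.Helper12.Asch

section abs

open scoped commutatorElement

variable {G : Type*} [Group G]

/-- the conjugate `h L h⁻¹` -/
def cj (h : G) (L : Subgroup G) : Subgroup G := L.map (MulAut.conj h).toMonoidHom

/-- `H` normalises `N` -/
def NR (H N : Subgroup G) : Prop := ∀ h ∈ H, ∀ x ∈ N, h * x * h⁻¹ ∈ N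

lemma mem_cj {h : G} {L : Subgroup G} {y : G} : y ∈ cj h L ↔ h⁻¹ * y * h ∈ L := by
  constructor
  · rintro ⟨x, hx, rfl⟩
    have : h⁻¹ * ((MulAut.conj h).toMonoidHom x) * h = x := by
      show h⁻¹ * (h * x * h⁻¹) * h = x
      group
    rw [this]; exact hx
  · intro hy
    refine ⟨_, hy, ?_⟩
    show h * (h⁻¹ * y * h) * h⁻¹ = y
    group

lemma cj_mul (a b : G) (L : Subgroup G) : cj (a * b) L = cj a (cj b L) := by
  ext y
  simp only [mem_cj]
  have : (a * b)⁻¹ * y * (a * b) = b⁻¹ * (a⁻¹ * y * a) * b := by group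
  rw [this]

lemma cj_one (L : Subgroup G) : cj 1 L = L := by
  ext y
  simp [mem_cj]

lemma cj_mono (h : G) {A B : Subgroup G} (hAB : A ≤ B) : cj h A ≤ cj h B :=
  Subgroup.map_mono hAB

lemma cj_inv_cj (h : G) (L : Subgroup G) : cj h⁻¹ (cj h L) = L := by
  rw [← cj_mul, inv_mul_cancel, cj_one]

lemma cj_cj_inv (h : G) (L : Subgroup G) : cj h (cj h⁻¹ L) = L := by
  rw [← cj_mul, mul_inv_cancel, cj_one]

lemma cj_injective (h : G) : Function.Injective (cj h : Subgroup G → Subgroup G) := by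
  intro A B hAB
  rw [← cj_inv_cj h A, hAB, cj_inv_cj]

lemma card_cj (h : G) (L : Subgroup G) : Nat.card (cj h L) = Nat.card L :=
  Subgroup.card_map_of_injective (MulAut.conj h).injective

lemma cj_commutator (h : G) (A B : Subgroup G) : cj h ⁅A, B⁆ = ⁅cj h A, cj h B⁆ :=
  Subgroup.map_commutator A B _

lemma cj_of_NR {H N : Subgroup G} (hn : NR H N) {h : G} (hh : h ∈ H) : cj h N = N := by
  ext y
  rw [mem_cj]
  constructor
  · intro hy
    have := hn h hh _ hy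
    have e : h * (h⁻¹ * y * h) * h⁻¹ = y := by group
    rwa [e] at this
  · intro hy
    have := hn h⁻¹ (H.inv_mem hh) _ hy
    rwa [inv_inv] at this

lemma cj_of_central {Z : Subgroup G} (hZ : ∀ z ∈ Z, ∀ g, z * g = g * z) (h : G) : cj h Z = Z := by
  ext y
  rw [mem_cj]
  constructor
  · intro hy
    have e : y = h⁻¹ * y * h := by
      have := hZ _ hy h⁻¹
      calc y = h * (h⁻¹ * y * h * h⁻¹) := by group
        _ = h * (h⁻¹ * (h⁻¹ * y * h)) := by rw [this]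
        _ = h⁻¹ * y * h := by group
    rw [e]; exact hy
  · intro hy
    have e : h⁻¹ * y * h = y := by
      rw [mul_assoc, hZ y hy h]; group
    rw [e]; exact hy

lemma NR_commutator {H A : Subgroup G} (hn : NR H A) : NR H ⁅A, A⁆ := by
  intro h hh x hx
  have h1 : cj h ⁅A, A⁆ = ⁅A, A⁆ := by rw [cj_commutator, cj_of_NR hn hh]
  rw [← h1, mem_cj]
  have e : h⁻¹ * (h * x * h⁻¹) * h = x := by group
  rw [e]; exact hx

lemma NR_of_cj {H A : Subgroup G} (h : ∀ h ∈ H, cj h A = A) : NR H A := by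
  intro g hg x hx
  rw [← h g hg, mem_cj]
  have e : g⁻¹ * (g * x * g⁻¹) * g = x := by group
  rw [e]; exact hx

/-- commutators modulo a central subgroup -/
lemma commutator_sup_central {P Z : Subgroup G} (hZ : ∀ z ∈ Z, ∀ g, z * g = g * z) :
    ⁅P ⊔ Z, P ⊔ Z⁆ = ⁅P, P⁆ := by
  apply le_antisymm
  · have hZn : Z.Normal := by
      refine ⟨fun z hz g => ?_⟩
      have : g * z * g⁻¹ = z := by rw [← hZ z hz g]; group
      rw [this]; exact hz
    rw [Subgroup.commutator_le]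
    intro x hx y hy
    obtain ⟨p, hp, z, hz, rfl⟩ := Subgroup.mem_sup_of_normal_right.1 hx
    obtain ⟨p', hp', z', hz', rfl⟩ := Subgroup.mem_sup_of_normal_right.1 hy
    have e : ⁅p * z, p' * z'⁆ = ⁅p, p'⁆ := by
      rw [commutatorElement_def, commutatorElement_def]
      have h1 : ∀ g, z * g = g * z := hZ z hz
      have h2 : ∀ g, z' * g = g * z' := hZ z' hz'
      calc p * z * (p' * z') * (p * z)⁻¹ * (p' * z')⁻¹
          = p * (z * p') * (z' * z⁻¹) * p⁻¹ * z'⁻¹ * p'⁻¹ := by group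
        _ = p * (p' * z) * (z⁻¹ * z') * p⁻¹ * z'⁻¹ * p'⁻¹ := by rw [h1 p', h2 z⁻¹]
        _ = p * p' * (z' * p⁻¹) * z'⁻¹ * p'⁻¹ := by group
        _ = p * p' * (p⁻¹ * z') * z'⁻¹ * p'⁻¹ := by rw [h2 p⁻¹]
        _ = p * p' * p⁻¹ * p'⁻¹ := by group
    rw [e]
    exact Subgroup.commutator_mem_commutator hp hp'
  · exact Subgroup.commutator_mono le_sup_left le_sup_left

/-- if the members of a family commute pairwise modulo the normal subgroup `S`, so does the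
join. -/
lemma commutator_iSup_le {κ : Type*} (S : Subgroup G) [S.Normal] (L : κ → Subgroup G)
    (h : ∀ i j, ⁅L i, L j⁆ ≤ S) : ⁅⨆ i, L i, ⨆ i, L i⁆ ≤ S := by
  let π := QuotientGroup.mk' S
  have key : ∀ A B : Subgroup G, ⁅A, B⁆ ≤ S ↔ A.map π ≤ Subgroup.centralizer (B.map π : Set (G ⧸ S)) := by
    intro A B
    rw [← Subgroup.commutator_eq_bot_iff_le_centralizer, ← Subgroup.map_commutator,
      eq_bot_iff, Subgroup.map_le_iff_le_comap]
    have : (⊥ : Subgroup (G ⧸ S)).comap π = S := by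
      exact QuotientGroup.ker_mk' S
    rw [this]
  rw [key, Subgroup.map_iSup, iSup_le_iff]
  intro i
  rw [Subgroup.le_centralizer_iff, iSup_le_iff]
  intro j
  exact (key _ _).1 (h j i)

theorem family_abs [Finite G] (Sc H N : Subgroup G) (hSc : ∀ s ∈ Sc, ∀ g, s * g = g * s)
    (hle : N ≤ H) (hnrm : NR H N)
    (hmin : ∀ M : Subgroup G, H ⊓ Sc ≤ M → M ≤ N → NR H M → M = H ⊓ Sc ∨ M = N)
    (hperf : ¬ ⁅N, N⁆ ≤ Sc)
    (hns : ¬ ∀ L : Subgroup G, H ⊓ Sc ≤ L → L ≤ N → NR N L → L = H ⊓ Sc ∨ L = N) :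
    ∃ (t : ℕ) (P : Fin t → Subgroup G), 2 ≤ t ∧ (∀ i, P i ≤ H) ∧
      (∀ i j, i ≠ j → ∀ x ∈ P i, ∀ y ∈ P j, x * y = y * x) ∧
      (∀ h ∈ H, ∃ σ : Equiv.Perm (Fin t), ∀ i, cj h (P i) = P (σ i)) ∧
      (∀ i j, ∃ h ∈ H, cj h (P i) = P j) ∧
      (∀ i, ¬ P i ≤ Sc) ∧ (∀ i, ⁅P i, P i⁆ = P i) := by
  classical
  have hScn : Sc.Normal := by
    refine ⟨fun z hz g => ?_⟩
    have : g * z * g⁻¹ = z := by rw [← hSc z hz g]; group
    rw [this]; exact hz
  set Z := H ⊓ Sc with hZ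
  have hZc : ∀ z ∈ Z, ∀ g, z * g = g * z := fun z hz => hSc z hz.2
  let 𝓛 : Set (Subgroup G) := {L | Z ≤ L ∧ L ≤ N ∧ NR N L ∧ L ≠ Z}
  push Not at hns
  obtain ⟨L0, h01, h02, h03, h04, h05⟩ := hns
  have hne : 𝓛.Nonempty := ⟨L0, h01, h02, h03, h04⟩
  obtain ⟨L, hL, hLmin⟩ := Set.exists_min_image 𝓛 (fun L => Nat.card L) (Set.toFinite _) hne
  have hLN : L ≠ N := by
    rintro rfl
    have h1 := hLmin L0 ⟨h01, h02, h03, h04⟩
    exact h05 (Subgroup.eq_of_le_of_card_ge h02 h1)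
  -- conjugates stay in the family
  have hconj : ∀ h ∈ H, ∀ A ∈ 𝓛, cj h A ∈ 𝓛 := by
    intro h hh A hA
    refine ⟨?_, ?_, ?_, ?_⟩
    · rw [← cj_of_central hZc h]; exact cj_mono h hA.1
    · rw [← cj_of_NR hnrm hh]; exact cj_mono h hA.2.1
    · intro n hn x hx
      rw [mem_cj] at hx ⊢
      have h1 : h⁻¹ * n * h ∈ N := by
        have := hnrm h⁻¹ (H.inv_mem hh) n hn
        rwa [inv_inv] at this
      have h2 := hA.2.2.1 _ h1 _ hx
      have e : h⁻¹ * n * h * (h⁻¹ * x * h) * (h⁻¹ * n * h)⁻¹ = h⁻¹ * (n * x * n⁻¹) * h := by group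
      rwa [e] at h2
    · intro h1
      rw [← cj_of_central hZc h] at h1
      exact hA.2.2.2 (cj_injective h h1)
  let 𝒪 : Set (Subgroup G) := {A | ∃ h ∈ H, A = cj h L}
  have hO𝓛 : ∀ A ∈ 𝒪, A ∈ 𝓛 := by
    rintro _ ⟨h, hh, rfl⟩; exact hconj h hh L hL
  have hOcard : ∀ A ∈ 𝒪, Nat.card A = Nat.card L := by
    rintro _ ⟨h, hh, rfl⟩; exact card_cj h L
  have hOmin : ∀ A ∈ 𝒪, ∀ B ∈ 𝓛, B ≤ A → B = A := by
    intro A hA B hB hBA
    refine Subgroup.eq_of_le_of_card_ge hBA ?_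
    rw [hOcard A hA]; exact hLmin B hB
  have hOcj : ∀ h ∈ H, ∀ A ∈ 𝒪, cj h A ∈ 𝒪 := by
    rintro h hh _ ⟨g, hg, rfl⟩
    exact ⟨h * g, H.mul_mem hh hg, (cj_mul h g L).symm⟩
  have hLO : L ∈ 𝒪 := ⟨1, H.one_mem, (cj_one L).symm⟩
  have hOtrans : ∀ A ∈ 𝒪, ∀ B ∈ 𝒪, ∃ h ∈ H, cj h A = B := by
    rintro _ ⟨a, ha, rfl⟩ _ ⟨b, hb, rfl⟩
    refine ⟨b * a⁻¹, H.mul_mem hb (H.inv_mem ha), ?_⟩
    rw [cj_mul, cj_inv_cj]
  -- distinct members
  have hOinf : ∀ A ∈ 𝒪, ∀ B ∈ 𝒪, A ≠ B → ⁅A, B⁆ ≤ Z := by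
    intro A hA B hB hAB
    have hA' := hO𝓛 A hA
    have hB' := hO𝓛 B hB
    have hinf : A ⊓ B = Z := by
      by_contra hne'
      have hmem : A ⊓ B ∈ 𝓛 := by
        refine ⟨le_inf hA'.1 hB'.1, inf_le_left.trans hA'.2.1, ?_, hne'⟩
        intro n hn x hx
        exact ⟨hA'.2.2.1 n hn x hx.1, hB'.2.2.1 n hn x hx.2⟩
      have h1 := hOmin A hA _ hmem inf_le_left
      have h2 := hOmin B hB _ hmem inf_le_right
      exact hAB (h1.symm.trans h2)
    rw [← hinf, Subgroup.commutator_le]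
    intro x hx y hy
    rw [commutatorElement_def]
    constructor
    · have h1 := hA'.2.2.1 y (hB'.2.1 hy) x⁻¹ (A.inv_mem hx)
      have := A.mul_mem hx h1
      have e : x * (y * x⁻¹ * y⁻¹) = x * y * x⁻¹ * y⁻¹ := by group
      rwa [e] at this
    · have h1 := hB'.2.2.1 x (hA'.2.1 hx) y hy
      exact B.mul_mem h1 (B.inv_mem hy)
  have hbot : ∀ A B : Subgroup G, A ≤ Z → ⁅A, B⁆ = ⊥ := by
    intro A B hA
    rw [eq_bot_iff, Subgroup.commutator_le]
    intro x hx y _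
    rw [commutatorElement_def, hZc x (hA hx) y, Subgroup.mem_bot]
    group
  have hOcomm : ∀ A ∈ 𝒪, ∀ B ∈ 𝒪, A ≠ B → ∀ x ∈ ⁅A, A⁆, ∀ y ∈ ⁅B, B⁆, x * y = y * x := by
    intro A hA B hB hAB x hx y hy
    have h1 : ⁅⁅A, A⁆, B⁆ = ⊥ := by
      apply Subgroup.commutator_commutator_eq_bot_of_rotate
      · exact hbot _ _ (hOinf A hA B hB hAB)
      · exact hbot _ _ (hOinf B hB A hA hAB.symm)
    have h2 : ⁅x, y⁆ ∈ ⁅⁅A, A⁆, B⁆ :=
      Subgroup.commutator_mem_commutator hx (Subgroup.commutator_le_self B hy)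
    rw [h1, Subgroup.mem_bot] at h2
    exact commutatorElement_eq_one_iff_mul_comm.1 h2
  -- not scalar
  have hOns : ∀ A ∈ 𝒪, ¬ ⁅A, A⁆ ≤ Sc := by
    intro A hA hAS
    have hall : ∀ B ∈ 𝒪, ⁅B, B⁆ ≤ Sc := by
      intro B hB
      obtain ⟨h, hh, rfl⟩ := hOtrans A hA B hB
      rw [← cj_commutator, ← cj_of_central hSc h]
      exact cj_mono h hAS
    let K : Subgroup G := ⨆ A : 𝒪, (A : Subgroup G)
    have hKN : K = N := by
      have h1 : Z ≤ K := (hO𝓛 L hLO).1.trans (le_iSup (fun A : 𝒪 => (A : Subgroup G)) ⟨L, hLO⟩)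
      have h2 : K ≤ N := iSup_le fun A => (hO𝓛 A.1 A.2).2.1
      have h3 : NR H K := by
        apply NR_of_cj
        intro h hh
        apply le_antisymm
        · show Subgroup.map _ _ ≤ _
          rw [Subgroup.map_iSup]
          exact iSup_le fun A =>
            le_iSup (fun A : 𝒪 => (A : Subgroup G)) ⟨cj h A.1, hOcj h hh A.1 A.2⟩
        · apply iSup_le
          intro A
          have : (A : Subgroup G) = cj h (cj h⁻¹ A.1) := (cj_cj_inv h _).symm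
          rw [this]
          apply cj_mono
          exact le_iSup (fun A : 𝒪 => (A : Subgroup G))
            ⟨cj h⁻¹ A.1, hOcj h⁻¹ (H.inv_mem hh) A.1 A.2⟩
      rcases hmin K h1 h2 h3 with h4 | h4
      · exfalso
        have : L ≤ Z := h4 ▸ le_iSup (fun A : 𝒪 => (A : Subgroup G)) ⟨L, hLO⟩
        exact (hO𝓛 L hLO).2.2.2 (le_antisymm this (hO𝓛 L hLO).1)
      · exact h4
    apply hperf
    rw [← hKN]
    apply commutator_iSup_le
    intro A B
    by_cases hAB : A.1 = B.1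
    · rw [← hAB]; exact hall A.1 A.2
    · exact (hOinf A.1 A.2 B.1 B.2 hAB).trans inf_le_right
  -- perfect
  have hOperf : ∀ A ∈ 𝒪, ⁅⁅A, A⁆, ⁅A, A⁆⁆ = ⁅A, A⁆ := by
    intro A hA
    have hA' := hO𝓛 A hA
    have hmem : ⁅A, A⁆ ⊔ Z ∈ 𝓛 := by
      refine ⟨le_sup_right,
        sup_le ((Subgroup.commutator_le_self A).trans hA'.2.1) (hA'.1.trans hA'.2.1), ?_, ?_⟩
      · apply NR_of_cj
        intro n hn
        show Subgroup.map _ _ = _
        rw [Subgroup.map_sup]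
        show cj n _ ⊔ cj n _ = _
        rw [cj_of_central hZc, cj_commutator, cj_of_NR hA'.2.2.1 hn]
      · intro h1
        apply hOns A hA
        have : ⁅A, A⁆ ≤ Z := h1 ▸ le_sup_left
        exact this.trans inf_le_right
    have h1 := hOmin A hA _ hmem (sup_le (Subgroup.commutator_le_self A) hA'.1)
    conv_rhs => rw [← h1]
    exact (commutator_sup_central hZc).symm
  -- enumerate
  let t := Nat.card 𝒪
  let e : Fin t ≃ 𝒪 := (Finite.equivFin 𝒪).symm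
  refine ⟨t, fun i => ⁅(e i : Subgroup G), (e i : Subgroup G)⁆, ?_, ?_, ?_, ?_, ?_, ?_, ?_⟩
  · by_contra hlt
    have ht1 : Nat.card 𝒪 ≤ 1 := by
      have : t = Nat.card 𝒪 := rfl
      omega
    have hsub : Subsingleton 𝒪 := (Finite.card_le_one_iff_subsingleton).1 ht1
    have h3 : NR H L := by
      apply NR_of_cj
      intro h hh
      have := Subsingleton.elim (⟨cj h L, hOcj h hh L hLO⟩ : 𝒪) ⟨L, hLO⟩
      exact congrArg Subtype.val this
    rcases hmin L hL.1 hL.2.1 h3 with h4 | h4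
    · exact hL.2.2.2 h4
    · exact hLN h4
  · intro i
    exact (Subgroup.commutator_le_self _).trans (((hO𝓛 _ (e i).2).2.1).trans hle)
  · intro i j hij
    exact hOcomm _ (e i).2 _ (e j).2 (fun h => hij (e.injective (Subtype.ext h)))
  · intro h hh
    let τ : Equiv.Perm 𝒪 :=
      ⟨fun A => ⟨cj h A.1, hOcj h hh A.1 A.2⟩,
        fun A => ⟨cj h⁻¹ A.1, hOcj h⁻¹ (H.inv_mem hh) A.1 A.2⟩,
        fun A => Subtype.ext (cj_inv_cj h A.1), fun A => Subtype.ext (cj_cj_inv h A.1)⟩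
    refine ⟨(e.trans τ).trans e.symm, fun i => ?_⟩
    rw [cj_commutator]
    simp [τ]
  · intro i j
    obtain ⟨h, hh, h1⟩ := hOtrans _ (e i).2 _ (e j).2
    exact ⟨h, hh, by rw [cj_commutator, h1]⟩
  · intro i
    exact hOns _ (e i).2
  · intro i
    exact hOperf _ (e i).2

end abs

open Cfsg Cfsg.Geo Matrix Cfsg.Agent.Lib.Helper13.Asch
open scoped Kronecker MatrixGroups

variable {ι : Type} [Fintype ι] [DecidableEq ι] {F : Type*} [Field F]

lemma scalars_central : ∀ s ∈ scalars ι F, ∀ g : GL ι F, s * g = g * s := by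
  intro s hs g
  obtain ⟨c, hc⟩ := (mem_scalars_iff s).1 hs
  apply Units.ext
  rw [Units.val_mul, Units.val_mul, hc]
  simp

/-- K2a -/
theorem exists_family [Finite F] {H N : Subgroup (GL ι F)} (h : MinNormal H N)
    (hperf : ¬ ⁅N, N⁆ ≤ scalars ι F)
    (hns : ¬ ∀ L : Subgroup (GL ι F), H ⊓ scalars ι F ≤ L → L ≤ N → Nrm N L →
      L = H ⊓ scalars ι F ∨ L = N) :
    ∃ (t : ℕ) (P : Fin t → Subgroup (GL ι F)), 2 ≤ t ∧ (∀ i, P i ≤ H) ∧
      (∀ i j, i ≠ j → ∀ x ∈ P i, ∀ y ∈ P j, x * y = y * x) ∧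
      (∀ h ∈ H, ∃ σ : Equiv.Perm (Fin t), ∀ i, (P i).map (MulAut.conj h).toMonoidHom = P (σ i)) ∧
      (∀ i j, ∃ h ∈ H, (P i).map (MulAut.conj h).toMonoidHom = P j) ∧
      (∀ i, ¬ P i ≤ scalars ι F) ∧ (∀ i, ⁅P i, P i⁆ = P i) := by
  have : Finite (GL ι F) := inferInstance
  exact family_abs (scalars ι F) H N scalars_central h.le h.nrm h.min hperf hns

end Cfsg.Agent.Lib.Helper12.Asch
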