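import Cfsg.Agent.Lib.Helper13.Asch.Defs2
import Cfsg.Agent.Lib.Helper96.Asch.L0b
import Cfsg.Agent.Lib.Helper12.Asch.K2a

set_option autoImplicit false

/-! # Piece C1 of the Aschbacher campaign: extraction of the `r`-group `R` -/

namespace Cfsg.Agent.Lib.Helper12.Asch

section abs

variable {G : Type*} [Group G]

lemma central_pow {z : G} (hz : ∀ g, z * g = g * z) (j : ℕ) : ∀ g, z ^ j * g = g * z ^ j :=
  fun g => ((show Commute z g from hz g).pow_left j)

lemma pow_mul_central {x y z : G} (hz : ∀ g, z * g = g * z) (h : y * x = z * (x * y)) (j : ℕ) :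
    y ^ j * x = z ^ j * (x * y ^ j) := by
  induction j with
  | zero => simp
  | succ j ih =>
    calc y ^ (j + 1) * x = y ^ j * (y * x) := by rw [pow_succ, mul_assoc]
      _ = y ^ j * (z * (x * y)) := by rw [h]
      _ = (y ^ j * z) * (x * y) := by rw [mul_assoc]
      _ = (z * y ^ j) * (x * y) := by rw [hz]
      _ = z * (y ^ j * x) * y := by simp only [mul_assoc]
      _ = z * (z ^ j * (x * y ^ j)) * y := by rw [ih]
      _ = z ^ (j + 1) * (x * y ^ (j + 1)) := by rw [pow_succ' z, pow_succ y]; simp only [mul_assoc]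

lemma mul_pow_central {x y z : G} (hz : ∀ g, z * g = g * z) (h : y * x = z * (x * y)) (m : ℕ) :
    (x * y) ^ m = z ^ (m.choose 2) * (x ^ m * y ^ m) := by
  induction m with
  | zero => simp
  | succ m ih =>
    have hc : (m + 1).choose 2 = m.choose 2 + m := by
      rw [Nat.choose_succ_succ' m 1, Nat.choose_one_right, add_comm]
    have hzm := central_pow hz m
    calc (x * y) ^ (m + 1) = (x * y) ^ m * (x * y) := pow_succ _ _
      _ = z ^ (m.choose 2) * (x ^ m * y ^ m) * (x * y) := by rw [ih]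
      _ = z ^ (m.choose 2) * (x ^ m * (y ^ m * x) * y) := by simp only [mul_assoc]
      _ = z ^ (m.choose 2) * (x ^ m * (z ^ m * (x * y ^ m)) * y) := by
        rw [pow_mul_central hz h m]
      _ = z ^ (m.choose 2) * ((x ^ m * z ^ m) * (x * y ^ m) * y) := by simp only [mul_assoc]
      _ = z ^ (m.choose 2) * ((z ^ m * x ^ m) * (x * y ^ m) * y) := by rw [hzm]
      _ = z ^ ((m + 1).choose 2) * (x ^ (m + 1) * y ^ (m + 1)) := by
        rw [hc, pow_add, pow_succ x, pow_succ y]; simp only [mul_assoc]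

lemma prime_dvd_choose {r : ℕ} (hr : r.Prime) : r ∣ (r * Nat.gcd 2 r).choose 2 := by
  rcases hr.eq_two_or_odd' with rfl | hodd
  · decide
  · have h2 : Nat.gcd 2 r = 1 := by
      apply (Nat.coprime_primes Nat.prime_two hr).2
      rintro rfl
      exact absurd hodd (by decide)
    rw [h2, mul_one]
    have : 2 < r := by
      have := hr.two_le
      rcases hodd with ⟨m, hm⟩
      omega
    exact hr.dvd_choose_self (by norm_num) this

/-- the abstract form of C1 -/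
theorem rdata_abs (Sc H Nh : Subgroup G) (hSc : ∀ s ∈ Sc, ∀ g, s * g = g * s) [IsCyclic Sc]
    {r : ℕ} (hr : r.Prime) (sc_le : Sc ≤ Nh) (nrm : ∀ h ∈ H, ∀ x ∈ Nh, h * x * h⁻¹ ∈ Nh)
    (comm : ∀ x ∈ Nh, ∀ y ∈ Nh, x * y * x⁻¹ * y⁻¹ ∈ Sc)
    (pow : ∀ x ∈ Nh, x ^ r ∈ Sc)
    (min : ∀ M : Subgroup G, Sc ≤ M → M ≤ Nh → (∀ h ∈ H, ∀ x ∈ M, h * x * h⁻¹ ∈ M) →
      M = Sc ∨ M = Nh)
    (hnonab : ¬ ∀ x ∈ Nh, ∀ y ∈ Nh, x * y = y * x) :
    ∃ R : Subgroup G, (∀ x, x ∈ R ↔ x ∈ Nh ∧ x ^ (r * Nat.gcd 2 r) = 1) ∧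
      ∀ x ∈ Nh, ∃ y ∈ R, ∃ s ∈ Sc, x = y * s := by
  classical
  set k := r * Nat.gcd 2 r with hk
  have hmul : ∀ x ∈ Nh, ∀ y ∈ Nh, (x * y) ^ k = x ^ k * y ^ k := by
    intro x hx y hy
    set z := y * x * y⁻¹ * x⁻¹ with hz
    have hzS : z ∈ Sc := comm y hy x hx
    have hzc := hSc z hzS
    have h1 : y * x = z * (x * y) := by rw [hz]; group
    have hzr : z ^ r = 1 := by
      have h2 := pow_mul_central hzc h1 r
      rw [hSc _ (pow y hy) x] at h2
      exact (mul_eq_right.1 h2.symm)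
    rw [mul_pow_central hzc h1 k]
    obtain ⟨m, hm⟩ := prime_dvd_choose hr
    rw [← hk] at hm
    rw [hm, pow_mul, hzr, one_pow, one_mul]
  have hpowk : ∀ x ∈ Nh, x ^ k ∈ Sc := by
    intro x hx
    rw [hk, pow_mul]
    exact Sc.pow_mem (pow x hx) _
  -- the power map
  let φ : Nh →* Sc :=
    { toFun := fun x => ⟨x.1 ^ k, hpowk x.1 x.2⟩
      map_one' := Subtype.ext (one_pow k)
      map_mul' := fun x y => Subtype.ext (hmul x.1 x.2 y.1 y.2) }
  let K : Subgroup Sc := (φ.comp (Subgroup.inclusion sc_le)).range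
  have hKn : K.Normal := by
    refine ⟨fun n hn g => ?_⟩
    have : g * n * g⁻¹ = n := by
      apply Subtype.ext
      show g.1 * n.1 * g.1⁻¹ = n.1
      rw [hSc g.1 g.2 n.1]; group
    rw [this]; exact hn
  have hcyc : IsCyclic (Sc ⧸ K) :=
    isCyclic_of_surjective (QuotientGroup.mk' K) (QuotientGroup.mk'_surjective K)
  let f : Nh →* Sc ⧸ K := (QuotientGroup.mk' K).comp φ
  have hker : ∀ x : Nh, x ∈ f.ker ↔ ∃ s ∈ Sc, s ^ k = x.1 ^ k := by
    intro x
    rw [MonoidHom.mem_ker]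
    show (QuotientGroup.mk (φ x) : Sc ⧸ K) = 1 ↔ _
    rw [QuotientGroup.eq_one_iff]
    constructor
    · rintro ⟨s, hs⟩
      exact ⟨s.1, s.2, congrArg Subtype.val hs⟩
    · rintro ⟨s, hs, h⟩
      exact ⟨⟨s, hs⟩, Subtype.ext h⟩
  let M : Subgroup G := f.ker.map Nh.subtype
  have hMmem : ∀ x, x ∈ M ↔ x ∈ Nh ∧ ∃ s ∈ Sc, s ^ k = x ^ k := by
    intro x
    constructor
    · rintro ⟨y, hy, rfl⟩
      exact ⟨y.2, (hker y).1 hy⟩
    · rintro ⟨hx, h⟩
      exact ⟨⟨x, hx⟩, (hker ⟨x, hx⟩).2 h, rfl⟩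
  have hMN : M = Nh := by
    have h1 : M = Sc ∨ M = Nh := by
      apply min
      · intro s hs
        exact (hMmem s).2 ⟨sc_le hs, s, hs, rfl⟩
      · intro x hx
        exact ((hMmem x).1 hx).1
      · intro h hh x hx
        obtain ⟨hx1, s, hs, hsx⟩ := (hMmem x).1 hx
        refine (hMmem _).2 ⟨nrm h hh x hx1, s, hs, ?_⟩
        rw [conj_pow, ← hsx, ← hSc _ (Sc.pow_mem hs k) h]
        group
    rcases h1 with h1 | h1
    · exfalso
      apply hnonab
      have hle : f.ker ≤ Subgroup.center Nh := by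
        intro x hx
        have hxM : x.1 ∈ M := ⟨x, hx, rfl⟩
        rw [h1] at hxM
        rw [Subgroup.mem_center_iff]
        intro g
        apply Subtype.ext
        exact (hSc x.1 hxM g.1).symm
      intro x hx y hy
      have := (f.isMulCommutative_of_isCyclic_of_ker_le_center hle).is_comm.comm
        ⟨x, hx⟩ ⟨y, hy⟩
      exact congrArg Subtype.val this
    · exact h1
  let R : Subgroup G := φ.ker.map Nh.subtype
  have hRmem : ∀ x, x ∈ R ↔ x ∈ Nh ∧ x ^ k = 1 := by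
    intro x
    constructor
    · rintro ⟨y, hy, rfl⟩
      exact ⟨y.2, congrArg Subtype.val (MonoidHom.mem_ker.1 hy)⟩
    · rintro ⟨hx, h⟩
      exact ⟨⟨x, hx⟩, MonoidHom.mem_ker.2 (Subtype.ext h), rfl⟩
  refine ⟨R, hRmem, ?_⟩
  intro x hx
  rw [← hMN] at hx
  obtain ⟨hx1, s, hs, hsx⟩ := (hMmem x).1 hx
  refine ⟨x * s⁻¹, (hRmem _).2 ⟨Nh.mul_mem hx1 (Nh.inv_mem (sc_le hs)), ?_⟩, s, hs, by group⟩
  rw [hmul x hx1 _ (Nh.inv_mem (sc_le hs)), inv_pow, hsx, mul_inv_cancel]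

end abs

open Cfsg Cfsg.Geo Matrix Cfsg.Agent.Lib.Helper13.Asch
open scoped Kronecker MatrixGroups

variable {ι : Type} [Fintype ι] [DecidableEq ι] {F : Type*} [Field F]

lemma isCyclic_scalars [Finite F] : IsCyclic (scalars ι F) := by
  unfold scalars
  exact isCyclic_of_surjective _ (MonoidHom.rangeRestrict_surjective _)

/-- a group spanning all matrices in dimension at least two is not commutative -/
lemma not_comm_of_env_top (hι : 2 ≤ Fintype.card ι) {N : Subgroup (GL ι F)} (henv : env N = ⊤) :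
    ¬ ∀ x ∈ N, ∀ y ∈ N, x * y = y * x := by
  intro hab
  have h1 : ∀ x ∈ N, ∃ c : F, (x : Matrix ι ι F) = c • 1 := fun x hx =>
    Cfsg.Agent.Lib.Helper96.Asch.scalar_of_commute henv x (fun y hy => by
      rw [← Units.val_mul, ← Units.val_mul, hab x hx y hy])
  obtain ⟨i, j, hij⟩ := Fintype.one_lt_card_iff.1 (by omega : 1 < Fintype.card ι)
  obtain ⟨c, hc⟩ := Cfsg.Agent.Lib.Helper96.Asch.scalar_of_commute henv (Matrix.single i j 1)
    (fun x hx => by obtain ⟨c, hc⟩ := h1 x hx; rw [hc]; simp)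
  have := congrFun (congrFun hc i) j
  simp [hij] at this

/-- C1 -/
theorem exists_RData [Finite F] (hι : 2 ≤ Fintype.card ι) {H Nh : Subgroup (GL ι F)} {r : ℕ}
    (h : SympData H Nh r) : ∃ R, RData H R r := by
  classical
  have hcyc : IsCyclic (scalars ι F) := isCyclic_scalars
  obtain ⟨R, hR, hdec⟩ := rdata_abs (scalars ι F) H Nh scalars_central h.prime h.sc_le h.nrm
    h.comm h.pow h.min (not_comm_of_env_top hι h.envTop)
  have hRN : R ≤ Nh := fun x hx => ((hR x).1 hx).1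
  refine ⟨R, h.prime, ?_, ?_, ?_, ?_, ?_, ?_⟩
  · intro g hg x hx
    obtain ⟨hx1, hx2⟩ := (hR x).1 hx
    exact (hR _).2 ⟨h.nrm g hg x hx1, by rw [conj_pow, hx2]; group⟩
  · intro x hx y hy
    exact h.comm x (hRN hx) y (hRN hy)
  · rw [eq_top_iff, ← h.envTop]
    unfold env
    apply Algebra.adjoin_le
    rintro _ ⟨x, hx, rfl⟩
    obtain ⟨y, hy, s, hs, rfl⟩ := hdec x hx
    obtain ⟨c, hc⟩ := (mem_scalars_iff s).1 hs
    show ((y * s : GL ι F) : Matrix ι ι F) ∈ Algebra.adjoin F (matrixSet R)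
    rw [Units.val_mul, hc, Matrix.mul_smul, mul_one]
    have hyR : (y : Matrix ι ι F) ∈ matrixSet R := ⟨y, hy, rfl⟩
    exact Subalgebra.smul_mem _ (Algebra.subset_adjoin hyR) _
  · intro x hx
    exact ((hR x).1 hx).2
  · intro g hg hgk
    exact (hR g).2 ⟨h.sc_le hg, hgk⟩
  · intro M h1 h2 h3
    have h4 : M ⊔ scalars ι F = scalars ι F ∨ M ⊔ scalars ι F = Nh := by
      apply h.min _ le_sup_right (sup_le (h2.trans hRN) h.sc_le)
      intro g hg x hx
      obtain ⟨m, hm, s, hs, rfl⟩ := Subgroup.mem_sup_of_normal_right.1 hx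
      have : g * (m * s) * g⁻¹ = (g * m * g⁻¹) * (g * s * g⁻¹) := by group
      rw [this]
      exact Subgroup.mul_mem_sup (h3 g hg m hm) (scalars_normal.conj_mem s hs g)
    rcases h4 with h4 | h4
    · left
      apply le_antisymm _ h1
      exact le_inf h2 (h4 ▸ le_sup_left)
    · right
      apply le_antisymm h2
      intro x hx
      have hx' : x ∈ M ⊔ scalars ι F := h4 ▸ hRN hx
      obtain ⟨m, hm, s, hs, rfl⟩ := Subgroup.mem_sup_of_normal_right.1 hx'
      have hsR : s ∈ R := by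
        have := R.mul_mem (R.inv_mem (h2 hm)) hx
        rwa [inv_mul_cancel_left] at this
      exact M.mul_mem hm (h1 ⟨hsR, hs⟩)

end Cfsg.Agent.Lib.Helper12.Asch
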