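import Cfsg.Agent.Lib.Helper12.Asch.C1

set_option autoImplicit false

/-! # Piece C3 of the Aschbacher campaign: `R` is of symplectic type -/

namespace Cfsg.Agent.Lib.Helper12.Asch

open Cfsg Cfsg.Geo Matrix Cfsg.Agent.Lib.Helper13.Asch
open scoped Kronecker MatrixGroups

variable {ι : Type} [Fintype ι] [DecidableEq ι] {F : Type*} [Field F]

/-- conjugation by a normalising element, as an automorphism -/
def conjOn {G : Type*} [Group G] (R : Subgroup G) (h : G) (h1 : ∀ x ∈ R, h * x * h⁻¹ ∈ R)
    (h2 : ∀ x ∈ R, h⁻¹ * x * h ∈ R) : R ≃* R where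
  toFun x := ⟨h * x.1 * h⁻¹, h1 x.1 x.2⟩
  invFun x := ⟨h⁻¹ * x.1 * h, h2 x.1 x.2⟩
  left_inv x := Subtype.ext (by show h⁻¹ * (h * x.1 * h⁻¹) * h = x.1; group)
  right_inv x := Subtype.ext (by show h * (h⁻¹ * x.1 * h) * h⁻¹ = x.1; group)
  map_mul' x y := Subtype.ext (by
    show h * (x.1 * y.1) * h⁻¹ = (h * x.1 * h⁻¹) * (h * y.1 * h⁻¹); group)

/-- C3 -/
theorem RData.sympType [Finite F] (hι : 2 ≤ Fintype.card ι) {H R : Subgroup (GL ι F)} {r : ℕ}
    (h : RData H R r) : IsSymplecticTypeGroup r R := by
  classical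
  have hnc := not_comm_of_env_top hι h.envTop
  have hcyc : IsCyclic (scalars ι F) := isCyclic_scalars
  refine ⟨h.prime, ?_, ?_, ?_⟩
  · intro x
    rcases h.prime.eq_two_or_odd' with rfl | hodd
    · refine ⟨2, Subtype.ext ?_⟩
      exact h.exp x.1 x.2
    · have h2 : Nat.gcd 2 r = 1 := by
        apply (Nat.coprime_primes Nat.prime_two h.prime).2
        rintro rfl
        exact absurd hodd (by decide)
      refine ⟨1, Subtype.ext ?_⟩
      have := h.exp x.1 x.2
      rw [h2, mul_one] at this
      rw [pow_one]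
      exact this
  · intro A hA hAc
    let A' : Subgroup (GL ι F) := A.map R.subtype
    have hA'R : A' ≤ R := by
      rintro _ ⟨a, -, rfl⟩
      exact a.2
    have hA'n : Nrm H A' := by
      rintro g hg _ ⟨a, ha, rfl⟩
      have h1 : ∀ x ∈ R, g * x * g⁻¹ ∈ R := h.nrm g hg
      have h2 : ∀ x ∈ R, g⁻¹ * x * g ∈ R := fun x hx => by
        have := h.nrm g⁻¹ (H.inv_mem hg) x hx
        rwa [inv_inv] at this
      have h3 := (Subgroup.characteristic_iff_map_le.1 hA) (conjOn R g h1 h2)
      exact ⟨conjOn R g h1 h2 a, h3 ⟨a, ha, rfl⟩, rfl⟩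
    have hA'c : ∀ x ∈ A', ∀ y ∈ A', x * y = y * x := by
      rintro _ ⟨a, ha, rfl⟩ _ ⟨b, hb, rfl⟩
      have := hAc.is_comm.comm ⟨a, ha⟩ ⟨b, hb⟩
      exact congrArg (fun z : A => (z.1.1 : GL ι F)) this
    have hmin := h.min (A' ⊔ (R ⊓ scalars ι F)) le_sup_right (sup_le hA'R inf_le_left) (by
      have hn : (R ⊓ scalars ι F).Normal := by
        refine ⟨fun z hz g => ?_⟩
        have : g * z * g⁻¹ = z := by rw [← scalars_central z hz.2 g]; group
        rw [this]; exact hz
      intro g hg x hx
      obtain ⟨m, hm, s, hs, rfl⟩ := Subgroup.mem_sup_of_normal_right.1 hx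
      have e : g * (m * s) * g⁻¹ = (g * m * g⁻¹) * (g * s * g⁻¹) := by group
      rw [e]
      exact Subgroup.mul_mem_sup (hA'n g hg m hm) (hn.conj_mem s hs g))
    rcases hmin with h1 | h1
    · have hle : A' ≤ scalars ι F := (h1 ▸ le_sup_left : A' ≤ R ⊓ scalars ι F).trans inf_le_right
      let f : A →* scalars ι F := ((R.subtype).comp A.subtype).codRestrict (scalars ι F)
        (fun a => hle ⟨a.1, a.2, rfl⟩)
      apply isCyclic_of_injective f
      intro a b hab
      have := congrArg Subtype.val hab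
      exact Subtype.ext (Subtype.ext this)
    · exfalso
      apply hnc
      have hn : (R ⊓ scalars ι F).Normal := by
        refine ⟨fun z hz g => ?_⟩
        have : g * z * g⁻¹ = z := by rw [← scalars_central z hz.2 g]; group
        rw [this]; exact hz
      intro x hx y hy
      rw [← h1] at hx hy
      obtain ⟨m, hm, s, hs, rfl⟩ := Subgroup.mem_sup_of_normal_right.1 hx
      obtain ⟨m', hm', s', hs', rfl⟩ := Subgroup.mem_sup_of_normal_right.1 hy
      have c1 := scalars_central s hs.2
      have c2 := scalars_central s' hs'.2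
      calc m * s * (m' * s') = m * (s * m') * s' := by group
        _ = m * (m' * s) * s' := by rw [c1]
        _ = (m * m') * (s * s') := by group
        _ = (m' * m) * (s' * s) := by rw [hA'c m hm m' hm', c1 s']
        _ = m' * (m * s') * s := by group
        _ = m' * (s' * m) * s := by rw [c2 m]
        _ = m' * s' * (m * s) := by group
  · have hdvd : Monoid.exponent R ∣ r * Nat.gcd 2 r :=
      Monoid.exponent_dvd_of_forall_pow_eq_one (fun x => Subtype.ext (h.exp x.1 x.2))
    have hexp : ∀ x ∈ R, x ^ Monoid.exponent R = 1 := fun x hx =>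
      congrArg Subtype.val (Monoid.pow_exponent_eq_one (⟨x, hx⟩ : R))
    have hne1 : Monoid.exponent R ≠ 1 := by
      intro h1
      apply hnc
      intro x hx y hy
      have e1 := hexp x hx
      have e2 := hexp y hy
      rw [h1, pow_one] at e1 e2
      rw [e1, e2]
    rcases h.prime.eq_two_or_odd' with rfl | hodd
    · have hne2 : Monoid.exponent R ≠ 2 := by
        intro h2
        apply hnc
        intro x hx y hy
        have e1 := hexp x hx
        have e2 := hexp y hy
        have e3 := hexp (x * y) (R.mul_mem hx hy)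
        rw [h2] at e1 e2 e3
        have i1 : x⁻¹ = x := by rw [inv_eq_iff_mul_eq_one, ← pow_two, e1]
        have i2 : y⁻¹ = y := by rw [inv_eq_iff_mul_eq_one, ← pow_two, e2]
        have i3 : (x * y)⁻¹ = x * y := by rw [inv_eq_iff_mul_eq_one, ← pow_two, e3]
        rw [← i3, _root_.mul_inv_rev, i1, i2]
      have h4 : Monoid.exponent R ∣ 4 := hdvd
      have hle : Monoid.exponent R ≤ 4 := Nat.le_of_dvd (by norm_num) h4
      show Monoid.exponent R = 4
      generalize Monoid.exponent R = e at *
      interval_cases e <;> simp_all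
    · have h2 : Nat.gcd 2 r = 1 := by
        apply (Nat.coprime_primes Nat.prime_two h.prime).2
        rintro rfl
        exact absurd hodd (by decide)
      rw [h2, mul_one] at hdvd ⊢
      exact ((Nat.dvd_prime h.prime).1 hdvd).resolve_left hne1

end Cfsg.Agent.Lib.Helper12.Asch
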