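import Cfsg.Agent.Lib.Helper12.Asch.K2a
import Cfsg.Agent.Lib.Helper13.Asch.Defs3
import Cfsg.Agent.Lib.Helper58.Asch.L0a
import Cfsg.Agent.Lib.Helper96.Asch.L0c
import Cfsg.Agent.Lib.Helper73.Asch.L1
import Cfsg.Agent.Lib.Helper79.Asch.L4
import Cfsg.Agent.Lib.Helper21.Asch.L13
import Cfsg.Agent.Lib.Helper21.Asch.L14
import Cfsg.Agent.Lib.Helper58.Asch.L15
import Cfsg.Agent.Lib.Helper55.Asch.L12c
import Cfsg.Agent.Lib.Helper55.Asch.L9a
import Cfsg.Agent.Lib.Helper55.Asch.L9c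
import Cfsg.Agent.Lib.Helper55.Asch.L9e

set_option autoImplicit false

/-! # Piece K2b of the Aschbacher campaign: a family of commuting perfect subgroups gives a
tensor decomposition -/

namespace Cfsg.Agent.Lib.Helper12.Asch

open Cfsg Cfsg.Geo Matrix Cfsg.Agent.Lib.Helper13.Asch
open scoped Kronecker MatrixGroups

variable {ι : Type} [Fintype ι] [DecidableEq ι] {F : Type*} [Field F]

lemma val_mul_inv (h : GL ι F) : (h : Matrix ι ι F) * ((h⁻¹ : GL ι F) : Matrix ι ι F) = 1 := by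
  rw [← Units.val_mul, mul_inv_cancel, Units.val_one]

lemma val_inv_mul (h : GL ι F) : ((h⁻¹ : GL ι F) : Matrix ι ι F) * (h : Matrix ι ι F) = 1 := by
  rw [← Units.val_mul, inv_mul_cancel, Units.val_one]

/-- conjugation by `h` as an algebra endomorphism -/
def cjA (h : GL ι F) : Matrix ι ι F →ₐ[F] Matrix ι ι F where
  toFun X := (h : Matrix ι ι F) * X * ((h⁻¹ : GL ι F) : Matrix ι ι F)
  map_one' := by rw [mul_one, val_mul_inv]
  map_mul' X Y := by
    calc (h : Matrix ι ι F) * (X * Y) * ((h⁻¹ : GL ι F) : Matrix ι ι F)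
        = (h : Matrix ι ι F) * X * 1 * Y * ((h⁻¹ : GL ι F) : Matrix ι ι F) := by
          simp only [mul_one, mul_assoc]
      _ = _ := by rw [← val_inv_mul h]; simp only [mul_assoc]
  map_zero' := by simp
  map_add' X Y := by rw [mul_add, add_mul]
  commutes' r := by
    rw [← Algebra.commutes, mul_assoc, val_mul_inv, mul_one]

lemma cjA_apply (h : GL ι F) (X : Matrix ι ι F) :
    cjA h X = (h : Matrix ι ι F) * X * ((h⁻¹ : GL ι F) : Matrix ι ι F) := rfl

lemma env_conj (h : GL ι F) (N : Subgroup (GL ι F)) :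
    env (N.map (MulAut.conj h).toMonoidHom) = (env N).map (cjA h) := by
  unfold env
  rw [AlgHom.map_adjoin]
  congr 1
  ext M
  constructor
  · rintro ⟨_, ⟨x, hx, rfl⟩, rfl⟩
    exact ⟨(x : Matrix ι ι F), ⟨x, hx, rfl⟩, rfl⟩
  · rintro ⟨_, ⟨x, hx, rfl⟩, rfl⟩
    exact ⟨h * x * h⁻¹, ⟨x, hx, rfl⟩, rfl⟩

lemma mem_env {N : Subgroup (GL ι F)} {x : GL ι F} (hx : x ∈ N) : (x : Matrix ι ι F) ∈ env N :=
  Algebra.subset_adjoin ⟨x, hx, rfl⟩

lemma env_commute {N M : Subgroup (GL ι F)} (h : ∀ x ∈ N, ∀ y ∈ M, x * y = y * x) :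
    ∀ a ∈ env N, ∀ b ∈ env M, a * b = b * a := by
  have h1 : ∀ x ∈ N, ∀ b ∈ env M, (x : Matrix ι ι F) * b = b * (x : Matrix ι ι F) := by
    intro x hx
    have : env M ≤ Subalgebra.centralizer F {(x : Matrix ι ι F)} := by
      apply Algebra.adjoin_le
      rintro _ ⟨y, hy, rfl⟩
      rw [SetLike.mem_coe, Subalgebra.mem_centralizer_iff]
      intro m hm
      rw [Set.mem_singleton_iff] at hm
      subst hm
      rw [← Units.val_mul, ← Units.val_mul, h x hx y hy]
    intro b hb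
    exact (Subalgebra.mem_centralizer_iff F).1 (this hb) _ rfl
  intro a ha b hb
  have : env N ≤ Subalgebra.centralizer F {b} := by
    apply Algebra.adjoin_le
    rintro _ ⟨x, hx, rfl⟩
    rw [SetLike.mem_coe, Subalgebra.mem_centralizer_iff]
    intro m hm
    rw [Set.mem_singleton_iff] at hm
    subst hm
    exact (h1 x hx m hb).symm
  exact ((Subalgebra.mem_centralizer_iff F).1 (this ha) _ rfl).symm

/-- the tensor decomposition attached to the family -/
theorem tensor_frame [Fintype F] [Nonempty ι] {H : Subgroup (GL ι F)} (hQP : QP H)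
    {t : ℕ} (ht : 2 ≤ t) (P : Fin t → Subgroup (GL ι F)) (hPH : ∀ i, P i ≤ H)
    (hcomm : ∀ i j, i ≠ j → ∀ x ∈ P i, ∀ y ∈ P j, x * y = y * x)
    (hperm : ∀ h ∈ H, ∃ σ : Equiv.Perm (Fin t), ∀ i,
      (P i).map (MulAut.conj h).toMonoidHom = P (σ i))
    (htrans : ∀ i j, ∃ h ∈ H, (P i).map (MulAut.conj h).toMonoidHom = P j)
    (hns : ∀ i, ¬ P i ≤ scalars ι F) :
    Nrm H (⨆ i, P i) ∧ env (⨆ i, P i) = ⊤ ∧
    ∃ (m : ℕ) (e : ι ≃ (Fin t → Fin m)) (Pm : GL ι F),
      H ≤ tensorWreathSubgroup m t e Pm ∧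
      ∀ i, ∀ x ∈ P i, ∃ X : Matrix (Fin m) (Fin m) F, (x : Matrix ι ι F) = embT e Pm i X := by
  classical
  set P0 : Subgroup (GL ι F) := ⨆ i, P i with hP0
  have i0 : Fin t := ⟨0, by omega⟩
  have hPP0 : ∀ i, P i ≤ P0 := fun i => le_iSup P i
  have hP0H : P0 ≤ H := iSup_le hPH
  have hnrm : Nrm H P0 := by
    intro h hh x hx
    obtain ⟨σ, hσ⟩ := hperm h hh
    induction hx using Subgroup.iSup_induction' with
    | hp i x hx =>
      apply hPP0 (σ i)
      rw [← hσ i]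
      exact ⟨x, hx, rfl⟩
    | h1 => simp
    | hmul x y _ _ hx hy =>
      have e : h * (x * y) * h⁻¹ = (h * x * h⁻¹) * (h * y * h⁻¹) := by group
      rw [e]
      exact P0.mul_mem hx hy
  have henv : env P0 = ⊤ :=
    (hQP P0 hP0H hnrm).resolve_left (fun h => hns i0 ((hPP0 i0).trans h))
  refine ⟨hnrm, henv, ?_⟩
  have hnrmi : ∀ i, Nrm P0 (P i) := by
    intro i x hx
    induction hx using Subgroup.iSup_induction' with
    | hp j x hx =>
      intro y hy
      by_cases hij : j = i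
      · subst hij
        exact (P j).mul_mem ((P j).mul_mem hx hy) ((P j).inv_mem hx)
      · rw [hcomm j i hij x hx y hy, mul_inv_cancel_right]
        exact hy
    | h1 => intro y hy; simpa using hy
    | hmul x y _ _ hx hy =>
      intro z hz
      have e : x * y * z * (x * y)⁻¹ = x * (y * z * y⁻¹) * x⁻¹ := by group
      rw [e]
      exact hx _ (hy z hz)
  have hAcomm : ∀ i j, i ≠ j → ∀ a ∈ env (P i), ∀ b ∈ env (P j), a * b = b * a :=
    fun i j hij => env_commute (hcomm i j hij)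
  have hcenter : ∀ i, ∀ z ∈ env (P i), (∀ a ∈ env (P i), z * a = a * z) →
      ∃ c : F, z = c • (1 : Matrix ι ι F) := by
    intro i z hz hza
    apply Cfsg.Agent.Lib.Helper96.Asch.scalar_of_commute henv
    intro x hx
    induction hx using Subgroup.iSup_induction' with
    | hp j x hx =>
      by_cases hij : i = j
      · subst hij
        exact hza _ (mem_env hx)
      · exact hAcomm i j hij z hz _ (mem_env hx)
    | h1 => simp
    | hmul x y _ _ hx hy =>
      rw [Units.val_mul, ← mul_assoc, hx, mul_assoc, hy, mul_assoc]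
  have hSS : ∀ i, SS (env (P i)) := fun i =>
    Cfsg.Agent.Lib.Helper73.Asch.ss_of_irr P0
      (Cfsg.Agent.Lib.Helper96.Asch.absIrr_of_env_top henv).1 _
      (Cfsg.Agent.Lib.Helper58.Asch.nrm_env (hnrmi i))
  obtain ⟨m, ⟨ψ⟩⟩ := Cfsg.Agent.Lib.Helper79.Asch.exists_algEquiv_matrix (env (P i0)) (hSS i0)
    (hcenter i0)
  choose g hgH hg using htrans i0
  let φ : Fin t → (Matrix (Fin m) (Fin m) F →ₐ[F] Matrix ι ι F) := fun i =>
    (cjA (g i)).comp ((env (P i0)).val.comp ψ.toAlgHom)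
  have hrange : ∀ i, (φ i).range = env (P i) := by
    intro i
    show ((cjA (g i)).comp ((env (P i0)).val.comp ψ.toAlgHom)).range = _
    rw [AlgHom.range_comp, AlgHom.range_comp, ← hg i, env_conj]
    congr 1
    have : (ψ.toAlgHom).range = ⊤ := by
      rw [AlgHom.range_eq_top]
      exact ψ.surjective
    rw [this, Algebra.map_top, Subalgebra.range_val]
  have hφmem : ∀ i X, φ i X ∈ env (P i) := fun i X => by
    rw [← hrange i]; exact ⟨X, rfl⟩
  have hgen : (⨆ i, (φ i).range) = ⊤ := by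
    rw [eq_top_iff, ← henv]
    apply Algebra.adjoin_le
    rintro _ ⟨x, hx, rfl⟩
    show (x : Matrix ι ι F) ∈ (⨆ i, (φ i).range)
    induction hx using Subgroup.iSup_induction' with
    | hp j x hx =>
      have h1 : (φ j).range ≤ ⨆ i, (φ i).range := le_iSup (fun i => (φ i).range) j
      apply h1
      rw [hrange j]
      exact mem_env hx
    | h1 => exact Subalgebra.one_mem _
    | hmul x y _ _ hx hy =>
      rw [Units.val_mul]
      exact Subalgebra.mul_mem _ hx hy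
  obtain ⟨e, Pm, hstd⟩ := Cfsg.Agent.Lib.Helper21.Asch.tensor_std φ
    (fun i j hij X Y => hAcomm i j hij _ (hφmem i X) _ (hφmem j Y)) hgen
  refine ⟨m, e, Pm, ?_, ?_⟩
  · intro h hh
    obtain ⟨σ, hσ⟩ := hperm h hh
    apply Cfsg.Agent.Lib.Helper21.Asch.mem_tensorWreath (by omega) e Pm h σ
    intro i X
    have h1 : cjA h (φ i X) ∈ env (P (σ i)) := by
      rw [← hσ i, env_conj]
      exact ⟨_, hφmem i X, rfl⟩
    rw [← hrange (σ i)] at h1
    obtain ⟨Y, hY⟩ := h1
    refine ⟨Y, ?_⟩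
    rw [← hstd, ← hstd]
    exact hY.symm
  · intro i x hx
    have h1 := mem_env hx
    rw [← hrange i] at h1
    obtain ⟨X, hX⟩ := h1
    exact ⟨X, by rw [← hstd]; exact hX.symm⟩

/-- the isometry group of a Gram matrix -/
def isoG (G : Matrix ι ι F) : Subgroup (GL ι F) where
  carrier := {x | (x : Matrix ι ι F)ᵀ * G * (x : Matrix ι ι F) = G}
  mul_mem' {a b} ha hb := by
    show ((a * b : GL ι F) : Matrix ι ι F)ᵀ * G * ((a * b : GL ι F) : Matrix ι ι F) = G
    have ha' : (a : Matrix ι ι F)ᵀ * G * (a : Matrix ι ι F) = G := ha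
    have hb' : (b : Matrix ι ι F)ᵀ * G * (b : Matrix ι ι F) = G := hb
    calc ((a * b : GL ι F) : Matrix ι ι F)ᵀ * G * ((a * b : GL ι F) : Matrix ι ι F)
        = (b : Matrix ι ι F)ᵀ * ((a : Matrix ι ι F)ᵀ * G * (a : Matrix ι ι F)) *
            (b : Matrix ι ι F) := by
          rw [Units.val_mul, Matrix.transpose_mul]; simp only [Matrix.mul_assoc]
      _ = G := by rw [ha', hb']
  one_mem' := by simp
  inv_mem' {a} ha := by
    show ((a⁻¹ : GL ι F) : Matrix ι ι F)ᵀ * G * ((a⁻¹ : GL ι F) : Matrix ι ι F) = G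
    have ha' : (a : Matrix ι ι F)ᵀ * G * (a : Matrix ι ι F) = G := ha
    have h1 : ((a⁻¹ : GL ι F) : Matrix ι ι F)ᵀ * (a : Matrix ι ι F)ᵀ = 1 := by
      rw [← Matrix.transpose_mul, val_mul_inv, Matrix.transpose_one]
    calc ((a⁻¹ : GL ι F) : Matrix ι ι F)ᵀ * G * ((a⁻¹ : GL ι F) : Matrix ι ι F)
        = ((a⁻¹ : GL ι F) : Matrix ι ι F)ᵀ * ((a : Matrix ι ι F)ᵀ * G * (a : Matrix ι ι F)) *
            ((a⁻¹ : GL ι F) : Matrix ι ι F) := by rw [ha']
      _ = (((a⁻¹ : GL ι F) : Matrix ι ι F)ᵀ * (a : Matrix ι ι F)ᵀ) * G *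
            ((a : Matrix ι ι F) * ((a⁻¹ : GL ι F) : Matrix ι ι F)) := by
          simp only [Matrix.mul_assoc]
      _ = G := by rw [h1, val_mul_inv, Matrix.one_mul, Matrix.mul_one]

lemma mem_isoG {G : Matrix ι ι F} {x : GL ι F} :
    x ∈ isoG G ↔ (x : Matrix ι ι F)ᵀ * G * (x : Matrix ι ι F) = G := Iff.rfl

lemma sim_inv {G : Matrix ι ι F} {x : GL ι F} {c : F}
    (h : (x : Matrix ι ι F)ᵀ * G * (x : Matrix ι ι F) = c • G) :
    c • (((x⁻¹ : GL ι F) : Matrix ι ι F)ᵀ * G * ((x⁻¹ : GL ι F) : Matrix ι ι F)) = G := by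
  have h1 : ((x⁻¹ : GL ι F) : Matrix ι ι F)ᵀ * (x : Matrix ι ι F)ᵀ = 1 := by
    rw [← Matrix.transpose_mul, val_mul_inv, Matrix.transpose_one]
  calc c • (((x⁻¹ : GL ι F) : Matrix ι ι F)ᵀ * G * ((x⁻¹ : GL ι F) : Matrix ι ι F))
      = ((x⁻¹ : GL ι F) : Matrix ι ι F)ᵀ * (c • G) * ((x⁻¹ : GL ι F) : Matrix ι ι F) := by
        rw [Matrix.mul_smul, Matrix.smul_mul]
    _ = (((x⁻¹ : GL ι F) : Matrix ι ι F)ᵀ * (x : Matrix ι ι F)ᵀ) * G *
          ((x : Matrix ι ι F) * ((x⁻¹ : GL ι F) : Matrix ι ι F)) := by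
        rw [← h]; simp only [Matrix.mul_assoc]
    _ = G := by rw [h1, val_mul_inv, Matrix.one_mul, Matrix.mul_one]

/-- commutators of similitudes are isometries -/
lemma commutator_mem_isoG {G : Matrix ι ι F} {x y : GL ι F} {c d : F}
    (hx : (x : Matrix ι ι F)ᵀ * G * (x : Matrix ι ι F) = c • G)
    (hy : (y : Matrix ι ι F)ᵀ * G * (y : Matrix ι ι F) = d • G) :
    x * y * x⁻¹ * y⁻¹ ∈ isoG G := by
  rw [mem_isoG]
  set X := (x : Matrix ι ι F)
  set Y := (y : Matrix ι ι F)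
  set X' := ((x⁻¹ : GL ι F) : Matrix ι ι F)
  set Y' := ((y⁻¹ : GL ι F) : Matrix ι ι F)
  have e : ((x * y * x⁻¹ * y⁻¹ : GL ι F) : Matrix ι ι F) = X * Y * X' * Y' := by
    simp only [Units.val_mul, X, Y, X', Y']
  rw [e]
  calc (X * Y * X' * Y')ᵀ * G * (X * Y * X' * Y')
      = Y'ᵀ * (X'ᵀ * (Yᵀ * (Xᵀ * G * X) * Y) * X') * Y' := by
        simp only [Matrix.transpose_mul, Matrix.mul_assoc]
    _ = Y'ᵀ * (X'ᵀ * (c • (Yᵀ * G * Y)) * X') * Y' := by
        rw [hx, Matrix.mul_smul, Matrix.smul_mul]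
    _ = Y'ᵀ * (X'ᵀ * (c • d • G) * X') * Y' := by rw [hy]
    _ = d • (Y'ᵀ * (c • (X'ᵀ * G * X')) * Y') := by
        simp only [Matrix.mul_smul, Matrix.smul_mul]
        rw [smul_comm]
    _ = d • (Y'ᵀ * G * Y') := by rw [sim_inv hx]
    _ = G := sim_inv hy

omit [DecidableEq ι] in
/-- in characteristic two a symmetric matrix with zero diagonal is alternating -/
lemma alt_of_symm (h2 : (2 : F) = 0) (K : Matrix ι ι F) (hs : Kᵀ = K) (hd : ∀ a, K a a = 0)
    (w : ι → F) : w ⬝ᵥ (K *ᵥ w) = 0 := by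
  have h1 : w ⬝ᵥ (K *ᵥ w) = ∑ p : ι × ι, w p.1 * K p.1 p.2 * w p.2 := by
    rw [Fintype.sum_prod_type]
    simp only [dotProduct, Matrix.mulVec, Finset.mul_sum, mul_assoc]
  rw [h1]
  apply Finset.sum_involution (fun p _ => (p.2, p.1))
  · intro p _
    have : K p.2 p.1 = K p.1 p.2 := by
      conv_rhs => rw [← hs]
      rfl
    show w p.1 * K p.1 p.2 * w p.2 + w p.2 * K p.2 p.1 * w p.1 = 0
    rw [this]
    linear_combination (w p.1 * K p.1 p.2 * w p.2) * h2
  · intro p _ hp hpe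
    apply hp
    have : p.2 = p.1 := congrArg Prod.fst hpe
    rw [this, hd]
    simp
  · intro p _
    exact Finset.mem_univ _
  · intro p _
    rfl

lemma embT_smul_one {m t : ℕ} (e : ι ≃ (Fin t → Fin m)) (P : GL ι F) (i : Fin t) (c : F) :
    embT e P i (c • (1 : Matrix (Fin m) (Fin m) F)) = c • (1 : Matrix ι ι F) := by
  unfold embT
  rw [Cfsg.Agent.Lib.Helper21.Asch.stdT_smul, Cfsg.Agent.Lib.Helper21.Asch.stdT_one]
  have : Matrix.reindex e.symm e.symm (c • (1 : Matrix (Fin t → Fin m) (Fin t → Fin m) F)) =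
      c • (1 : Matrix ι ι F) := by
    simp [Matrix.reindex_apply, Matrix.submatrix_smul]
  rw [this, Matrix.mul_smul, Matrix.smul_mul, mul_one, val_mul_inv]

/-- K2b -/
theorem tensor_of_family [Fintype F] {n : ℕ} (hn : 3 ≤ n) {H : Subgroup (GL (Fin n) F)} (hQP : QP H)
    {t : ℕ} (ht : 2 ≤ t) (P : Fin t → Subgroup (GL (Fin n) F)) (hPH : ∀ i, P i ≤ H)
    (hcomm : ∀ i j, i ≠ j → ∀ x ∈ P i, ∀ y ∈ P j, x * y = y * x)
    (hperm : ∀ h ∈ H, ∃ σ : Equiv.Perm (Fin t), ∀ i,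
      (P i).map (MulAut.conj h).toMonoidHom = P (σ i))
    (htrans : ∀ i j, ∃ h ∈ H, (P i).map (MulAut.conj h).toMonoidHom = P j)
    (hns : ∀ i, ¬ P i ≤ scalars (Fin n) F) (hperf : ∀ i, ⁅P i, P i⁆ = P i) : Cls n H := by
  classical
  have hne : Nonempty (Fin n) := ⟨⟨0, by omega⟩⟩
  obtain ⟨hnrm, henv, m, e, Pm, hH, hx⟩ := tensor_frame hQP ht P hPH hcomm hperm htrans hns
  have i0 : Fin t := ⟨0, by omega⟩
  rcases Nat.lt_or_ge m 3 with hm | hm
  swap
  · unfold Cls
    iterate 6 right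
    left
    exact ⟨m, t, e, Pm, hm, ht, hH⟩
  rcases Nat.lt_or_ge m 2 with hm2 | hm2
  · -- `m ≤ 1`: the `P i` are scalar
    exfalso
    apply hns i0
    intro x hxP
    obtain ⟨X, hX⟩ := hx i0 x hxP
    obtain ⟨c, hc⟩ : ∃ c : F, X = c • (1 : Matrix (Fin m) (Fin m) F) := by
      interval_cases m
      · exact ⟨0, Subsingleton.elim _ _⟩
      · refine ⟨X 0 0, ?_⟩
        ext a b
        rw [Subsingleton.elim a 0, Subsingleton.elim b 0]
        simp
    rw [hc, embT_smul_one] at hX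
    have hc0 : c ≠ 0 := by
      rintro rfl
      rw [zero_smul] at hX
      have := val_mul_inv x
      rw [hX, zero_mul] at this
      exact zero_ne_one this
    exact (mem_scalars_iff x).2 ⟨Units.mk0 c hc0, hX⟩
  obtain rfl : m = 2 := by omega
  obtain ⟨J, hJdet, hJT, hJd, hJ⟩ := Cfsg.Agent.Lib.Helper58.Asch.tensor_two_gram (F := F) t
  set J' : Matrix (Fin n) (Fin n) F := Matrix.reindex e.symm e.symm J with hJ'
  set Q : Matrix (Fin n) (Fin n) F := ((Pm⁻¹ : GL (Fin n) F) : Matrix (Fin n) (Fin n) F) with hQ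
  set G : Matrix (Fin n) (Fin n) F := Qᵀ * J' * Q with hG
  have hQP1 : Q * (Pm : Matrix (Fin n) (Fin n) F) = 1 := val_inv_mul Pm
  have hGdet : IsUnit G.det := by
    rw [hG, Matrix.det_mul, Matrix.det_mul, Matrix.det_transpose, hJ', Matrix.det_reindex_self]
    have hQu : IsUnit Q.det := by
      rw [← Matrix.isUnit_iff_isUnit_det]; exact (Pm⁻¹).isUnit
    exact (hQu.mul hJdet).mul hQu
  have hsim : ∀ i, ∀ x ∈ P i, ∃ c : F, (x : Matrix (Fin n) (Fin n) F)ᵀ * G *
      (x : Matrix (Fin n) (Fin n) F) = c • G := by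
    intro i x hxP
    obtain ⟨X, hX⟩ := hx i x hxP
    refine ⟨X.det, ?_⟩
    set S : Matrix (Fin n) (Fin n) F := Matrix.reindex e.symm e.symm (stdT i X) with hS
    have hSJ : Sᵀ * J' * S = X.det • J' := by
      rw [hS, hJ']
      simp only [Matrix.reindex_apply, Matrix.transpose_submatrix, Matrix.submatrix_mul_equiv]
      rw [hJ i X, Matrix.submatrix_smul]
      rfl
    have hX' : (x : Matrix (Fin n) (Fin n) F) = (Pm : Matrix (Fin n) (Fin n) F) * S * Q := hX
    have hPQ : (Pm : Matrix (Fin n) (Fin n) F)ᵀ * Qᵀ = 1 := by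
      rw [← Matrix.transpose_mul, hQP1, Matrix.transpose_one]
    calc (x : Matrix (Fin n) (Fin n) F)ᵀ * G * (x : Matrix (Fin n) (Fin n) F)
        = Qᵀ * (Sᵀ * (((Pm : Matrix (Fin n) (Fin n) F)ᵀ * Qᵀ) * J' *
            (Q * (Pm : Matrix (Fin n) (Fin n) F))) * S) * Q := by
          rw [hX', hG]
          simp only [Matrix.transpose_mul, Matrix.mul_assoc]
      _ = Qᵀ * (Sᵀ * J' * S) * Q := by
          rw [hPQ, hQP1, Matrix.one_mul, Matrix.mul_one]
      _ = X.det • G := by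
          rw [hSJ, hG, Matrix.mul_smul, Matrix.smul_mul]
  have hiso : ∀ i, P i ≤ isoG G := by
    intro i
    rw [← hperf i, Subgroup.commutator_le]
    intro x hxP y hyP
    obtain ⟨c, hc⟩ := hsim i x hxP
    obtain ⟨d, hd⟩ := hsim i y hyP
    exact commutator_mem_isoG hc hd
  have hfix : ∀ x ∈ (⨆ i, P i), (x : Matrix (Fin n) (Fin n) F)ᵀ * G *
      (x : Matrix (Fin n) (Fin n) F) = G := fun x hxP => (iSup_le hiso) hxP
  have hsymp : ∀ f : (Fin n → F) → (Fin n → F) → F, IsSymplecticForm f →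
      FixesForm (matrixSet (⨆ i, P i)) f → Cls n H := by
    intro f hf hff
    have hle := Cfsg.Agent.Lib.Helper55.Asch.sim_of_fixes_bilin H _ hnrm henv f
      hf.bilinear hf.nondegenerate hff
    have heven : Even n := by
      simpa using Cfsg.Agent.Lib.Helper55.Asch.even_card_of_symplectic f hf
    have h4 : 4 ≤ n := by
      obtain ⟨k, hk⟩ := heven
      omega
    unfold Cls
    iterate 7 right
    left
    exact ⟨f, hf, heven, h4, hle⟩
  by_cases h2 : (2 : F) = 0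
  · -- characteristic two
    set τ : F →+* F := ((RingEquiv.refl F : F ≃+* F) : F →+* F) with hτ
    have hmap : ∀ M : Matrix (Fin n) (Fin n) F, M.map τ = M := by
      intro M; ext i j; simp [hτ]
    have hneg : (-1 : F) = 1 := by linear_combination -h2
    have hJ'T : J'ᵀ = J' := by
      rw [hJ', Matrix.reindex_apply, Matrix.transpose_submatrix, hJT, hneg, one_pow, one_smul]
    have hGT : Gᵀ = G := by
      rw [hG]
      simp only [Matrix.transpose_mul, Matrix.transpose_transpose, hJ'T, Matrix.mul_assoc]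
    have hJ'd : ∀ a, J' a a = 0 := fun a => hJd (by omega) (e a)
    have hbil : IsBilinearForm (gform τ G) :=
      ⟨Cfsg.Agent.Lib.Helper55.Asch.gform_add_left τ G,
        Cfsg.Agent.Lib.Helper55.Asch.gform_smul_left τ G,
        Cfsg.Agent.Lib.Helper55.Asch.gform_add_right τ G,
        fun c v x => by rw [Cfsg.Agent.Lib.Helper55.Asch.gform_smul_right]; rfl⟩
    apply hsymp (gform τ G)
    · refine ⟨hbil, ?_, ?_,
        Cfsg.Agent.Lib.Helper55.Asch.nondeg_of_isUnit_det (RingEquiv.refl F) G hGdet⟩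
      · intro v w
        have h3 := Cfsg.Agent.Lib.Helper55.Asch.gform_herm τ (fun a => rfl) G v w
        rw [hmap, hGT] at h3
        have h4 : gform τ G v w = gform τ G w v := h3
        rw [h4]
        linear_combination (gform τ G w v) * h2
      · intro v
        have h3 := Cfsg.Agent.Lib.Helper55.Asch.gform_mulVec τ J' Q v v
        rw [hmap] at h3
        rw [hG, ← h3]
        exact alt_of_symm h2 J' hJ'T hJ'd _
    · rintro _ ⟨x, hxP, rfl⟩ u v
      rw [Cfsg.Agent.Lib.Helper55.Asch.gform_mulVec, hmap, hfix x hxP]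
  · rcases Cfsg.Agent.Lib.Helper55.Asch.exists_bilinear_form h2 _ henv G hGdet hfix with
      ⟨f, hf, hff⟩ | ⟨Qf, hQf, hQff⟩
    · exact hsymp f hf hff
    · have hle := Cfsg.Agent.Lib.Helper55.Asch.sim_of_fixes_quad h2 H _ hnrm henv Qf hQf hQff
      have hodd : Odd (Fintype.card F) := by
        rw [Nat.odd_iff]
        apply FiniteField.odd_card_of_char_ne_two
        intro hch
        apply h2
        have := ringChar.Nat.cast_ringChar (R := F)
        rw [hch] at this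
        exact_mod_cast this
      unfold Cls
      iterate 9 right
      exact ⟨Qf, hQf, hodd, hle⟩

end Cfsg.Agent.Lib.Helper12.Asch
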